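import Cfsg.Agent.Lib.ExcP.Local
import Cfsg.Agent.Lib.ExcP.KillInv
import Cfsg.Agent.Lib.Small.Sieve

/-!
# No simple group of order 459648
-/

set_option autoImplicit false

namespace Cfsg.Agent.Lib.ExcP.Ord459648

open Cfsg Cfsg.Agent.Lib.Char.Ortho
open Cfsg.Agent.Lib.ExcP.Gram Cfsg.Agent.Lib.ExcP.BlockHA Cfsg.Agent.Lib.ExcP.Local
open Cfsg.Agent.Lib.ExcP.Kill Cfsg.Agent.Lib.ExcP.KillInv
open Cfsg.Agent.Lib.Small.Basic Cfsg.Agent.Lib.Small.Sieve

universe u

variable {G : Type u} [Group G] [Finite G]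

/-- An involution of a group `K` of order 4 centralized by a 2-group `T` normalizing `K`. -/
theorem exists_invol {K T : Subgroup G} (hK : Nat.card K = 4) (hT : IsPGroup 2 T)
    (hinv : ∀ g ∈ T, ∀ v ∈ K, g * v * g⁻¹ ∈ K) :
    ∃ x ∈ K, x ≠ 1 ∧ x ^ 2 = 1 ∧ ∀ g ∈ T, g * x = x * g := by
  classical
  letI : MulAction T K :=
    { smul := fun g v => ⟨(g : G) * v * (g : G)⁻¹, hinv g g.2 v v.2⟩
      one_smul := fun v => by
        apply Subtype.ext
        show ((1 : T) : G) * v * ((1 : T) : G)⁻¹ = v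
        simp
      mul_smul := fun a b v => by
        apply Subtype.ext
        show ((a * b : T) : G) * v * ((a * b : T) : G)⁻¹ =
          (a : G) * ((b : G) * v * (b : G)⁻¹) * (a : G)⁻¹
        simp only [Subgroup.coe_mul]
        group }
  have hmod := hT.card_modEq_card_fixedPoints K
  rw [hK] at hmod
  have h1mem : (1 : K) ∈ MulAction.fixedPoints T K := by
    intro g
    apply Subtype.ext
    show (g : G) * ((1 : K) : G) * (g : G)⁻¹ = ((1 : K) : G)
    simp
  have hgt : 1 < Nat.card (MulAction.fixedPoints T K) := by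
    have h2 : 0 < Nat.card (MulAction.fixedPoints T K) := by
      haveI : Nonempty (MulAction.fixedPoints T K) := ⟨⟨1, h1mem⟩⟩
      exact Nat.card_pos
    have h3 : Nat.card (MulAction.fixedPoints T K) % 2 = 0 := by
      have := hmod.symm
      rw [Nat.ModEq] at this
      omega
    omega
  obtain ⟨⟨v, hv⟩, hv1⟩ : ∃ a : MulAction.fixedPoints T K, a ≠ ⟨1, h1mem⟩ := by
    haveI : Nontrivial (MulAction.fixedPoints T K) := (Finite.one_lt_card_iff_nontrivial).mp hgt
    exact exists_ne _
  have hv1' : (v : G) ≠ 1 := by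
    intro h
    apply hv1
    apply Subtype.ext
    exact Subtype.ext h
  have hcomm : ∀ g ∈ T, g * (v : G) = (v : G) * g := by
    intro g hg
    have h2 := hv ⟨g, hg⟩
    have h3 : g * (v : G) * g⁻¹ = (v : G) := congrArg Subtype.val h2
    rw [mul_inv_eq_iff_eq_mul] at h3
    exact h3
  have hv4 : (v : G) ^ 4 = 1 := by
    have h2 : v ^ 4 = 1 := by
      rw [← hK]
      exact pow_card_eq_one'
    exact_mod_cast congrArg Subtype.val h2
  by_cases hv2 : (v : G) ^ 2 = 1
  · exact ⟨v, v.2, hv1', hv2, hcomm⟩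
  · refine ⟨(v : G) ^ 2, K.pow_mem v.2 2, hv2, ?_, ?_⟩
    · rw [← pow_mul]
      exact hv4
    · intro g hg
      exact ((Commute.pow_right (hcomm g hg) 2)).eq

/-- Bound on the order of a proper subgroup containing `P` and `T`. -/
theorem card_H_le [IsSimpleGroup G] (hG : ¬ IsMulCommutative G) (hN : Nat.card G = 459648)
    {P T H : Subgroup G} (hP : Nat.card P = 19) (hT : Nat.card T = 8) (hPH : P ≤ H) (hTH : T ≤ H)
    (hTN : T ≤ Nn P) (hNn : Nat.card (Nn P) = 456) (hH : H ≠ ⊤) : Nat.card H ≤ 456 := by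
  classical
  haveI : Fact (Nat.Prime 19) := ⟨by norm_num⟩
  have hdvdG : Nat.card H ∣ 459648 := hN ▸ Subgroup.card_subgroup_dvd_card H
  have hPd : 19 ∣ Nat.card H := hP ▸ Subgroup.card_dvd_of_le hPH
  obtain ⟨m, hm⟩ := hPd
  have hm19 : ¬ 19 ∣ m := by
    rintro ⟨k, rfl⟩
    rw [hm] at hdvdG
    have h2 : 19 * 19 ∣ 459648 := Dvd.dvd.trans (Dvd.intro k (by ring)) hdvdG
    norm_num at h2
  have hH' : Nat.card H = 19 ^ 1 * m := by rw [hm, pow_one]
  have hPp : IsPGroup 19 P := IsPGroup.of_card (n := 1) (by rw [hP, pow_one])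
  have hPp' : IsPGroup 19 (P.subgroupOf H) :=
    hPp.comap_of_injective _ H.subtype_injective |>.of_equiv (MulEquiv.refl _)
  obtain ⟨S, hS⟩ := hPp'.exists_le_sylow
  have hScard := card_sylow_eq hH' hm19 S
  have hPcard : Nat.card (P.subgroupOf H) = 19 :=
    (Nat.card_congr (Subgroup.subgroupOfEquivOfLe hPH).toEquiv).trans hP
  have hSeq : P.subgroupOf H = S :=
    Subgroup.eq_of_le_of_card_ge hS (by rw [hPcard, hScard, pow_one])
  have hmemS : ∀ y : H, y ∈ (S : Subgroup H) ↔ (y : G) ∈ P := by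
    intro y
    rw [← hSeq]
    rfl
  set M : Subgroup G := (Subgroup.normalizer ((S : Subgroup H) : Set H)).map H.subtype with hM
  have hMcard : Nat.card M = Nat.card (Subgroup.normalizer ((S : Subgroup H) : Set H)) :=
    Subgroup.card_map_of_injective H.subtype_injective
  have hMN : M ≤ Nn P := by
    rintro _ ⟨y, hy, rfl⟩
    show (y : G) ∈ Subgroup.normalizer (P : Set G)
    rw [Subgroup.mem_set_normalizer_iff]
    intro g
    have hy' := (Subgroup.mem_set_normalizer_iff).mp hy
    constructor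
    · intro hg
      have h1 := (hy' ⟨g, hPH hg⟩).mp ((hmemS _).mpr hg)
      exact (hmemS _).mp h1
    · intro hg
      have hgH : g ∈ H := by
        have h1 : (y : G) * g * (y : G)⁻¹ ∈ H := hPH hg
        have h2 : (y : G)⁻¹ * ((y : G) * g * (y : G)⁻¹) * (y : G) ∈ H :=
          H.mul_mem (H.mul_mem (H.inv_mem y.2) h1) y.2
        simpa [mul_assoc] using h2
      have h1 := (hy' ⟨g, hgH⟩).mpr ((hmemS _).mpr hg)
      exact (hmemS _).mp h1
  have hsub : ∀ g : G, g ∈ H → g ∈ Nn P → g ∈ M := by
    intro g hgH hgN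
    refine ⟨⟨g, hgH⟩, ?_, rfl⟩
    show (⟨g, hgH⟩ : H) ∈ Subgroup.normalizer ((S : Subgroup H) : Set H)
    rw [Subgroup.mem_set_normalizer_iff]
    intro y
    have hgN' := (Subgroup.mem_set_normalizer_iff).mp hgN
    have h3 := hmemS (⟨g, hgH⟩ * y * (⟨g, hgH⟩ : H)⁻¹)
    exact (hmemS y).trans ((hgN' y).trans h3.symm)
  have hTM : T ≤ M := fun g hg => hsub g (hTH hg) (hTN hg)
  have hPM : P ≤ M := fun g hg => hsub g (hPH hg) (Subgroup.le_normalizer hg)
  have ha1 : Nat.card M ∣ 456 := hNn ▸ Subgroup.card_dvd_of_le hMN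
  have ha2 : 8 ∣ Nat.card M := hT ▸ Subgroup.card_dvd_of_le hTM
  have ha3 : 19 ∣ Nat.card M := hP ▸ Subgroup.card_dvd_of_le hPM
  have hn := card_normalizer_mul S
  rw [← hMcard] at hn
  have hmod : Nat.card (Sylow 19 H) % 19 = 1 := by
    have := card_sylow_modEq_one 19 H
    simpa [Nat.ModEq] using this
  generalize Nat.card (Sylow 19 H) = n at hn hmod
  generalize Nat.card M = a at hn ha1 ha2 ha3
  have hale : a ≤ 456 := Nat.le_of_dvd (by norm_num) ha1
  have hacases : a = 152 ∨ a = 456 := by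
    have h152 : 8 * 19 ∣ a :=
      Nat.Coprime.mul_dvd_of_dvd_of_dvd (by norm_num : Nat.Coprime 8 19) ha2 ha3
    rw [show 8 * 19 = 152 by norm_num] at h152
    obtain ⟨c, rfl⟩ := h152
    have hc3 : c ∣ 3 := by
      have : 152 * c ∣ 152 * 3 := ha1
      exact Nat.dvd_of_mul_dvd_mul_left (by norm_num) this
    have hc := (Nat.dvd_prime (by norm_num : Nat.Prime 3)).mp hc3
    rcases hc with rfl | rfl
    · left; norm_num
    · right; norm_num
  rw [← hn] at hdvdG
  have hnd : n ∣ 3024 := by
    rcases hacases with rfl | rfl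
    · have : 152 * n ∣ 152 * 3024 := hdvdG
      exact Nat.dvd_of_mul_dvd_mul_left (by norm_num) this
    · have : 456 * n ∣ 456 * 1008 := hdvdG
      exact (Nat.dvd_of_mul_dvd_mul_left (by norm_num) this).trans (by norm_num)
  have hnle : n ≤ 3024 := Nat.le_of_dvd (by norm_num) hnd
  have hchk : (List.range 3025).all
      (fun d => !(3024 % d == 0 && d % 19 == 1) || d == 1 || d == 1008) = true := by
    decide +kernel
  have hchk' := List.all_eq_true.mp hchk n (List.mem_range.mpr (by omega))
  have hnmod : 3024 % n = 0 := Nat.mod_eq_zero_of_dvd hnd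
  have hn1 : n = 1 ∨ n = 1008 := by
    simpa [hnmod, hmod] using hchk'
  rcases hn1 with rfl | rfl
  · rw [← hn]
    omega
  · exfalso
    rcases hacases with rfl | rfl
    · have hidx := Subgroup.card_mul_index H
      rw [← hn, hN] at hidx
      have hi3 : H.index = 3 := by omega
      have := two_mul_card_dvd_factorial_index hG H hH
      rw [hi3, hN] at this
      revert this
      decide
    · apply hH
      apply Subgroup.eq_top_of_card_eq
      rw [← hn, hN]

/-- The case of 96 Sylow subgroups. -/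
theorem false_n96 [IsSimpleGroup G] (hG : ¬ IsMulCommutative G) (hN : Nat.card G = 459648)
    {P : Subgroup G} [hp19 : Fact (Nat.Prime 19)] {V : Subgroup (Cn P)} [hVn : V.Normal]
    (hV : ¬ 19 ∣ Nat.card V) (hq : Nat.card (Cn P ⧸ V) = 19) (hidx : (Nn P).index = 96)
    (hVc : ∃ k, Nat.card V = 7 * k ∧ (k = 18 ∨ k = 12 ∨ k = 6 ∨ k = 4 ∨ k = 2)) : False := by
  classical
  haveI : Fact (Nat.Prime 7) := ⟨by norm_num⟩
  obtain ⟨k, hk, hkc⟩ := hVc
  have hK : Nat.card (cp V) = 7 ^ 1 * k := by rw [card_cp, hk, pow_one]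
  have hk7 : ¬ 7 ∣ k := by
    rcases hkc with rfl | rfl | rfl | rfl | rfl <;> norm_num
  have hone : Nat.card (Sylow 7 (cp V)) = 1 := by
    obtain ⟨Q⟩ : Nonempty (Sylow 7 (cp V)) := inferInstance
    have h1 : Nat.card (Sylow 7 (cp V)) ∣ k := by
      have := Q.card_dvd_index
      rwa [index_sylow_eq hK hk7 Q] at this
    have h2 : Nat.card (Sylow 7 (cp V)) % 7 = 1 := by
      have := card_sylow_modEq_one 7 (cp V)
      simpa [Nat.ModEq] using this
    generalize Nat.card (Sylow 7 (cp V)) = n at h1 h2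
    rcases hkc with rfl | rfl | rfl | rfl | rfl
    · have : n ≤ 18 := Nat.le_of_dvd (by norm_num) h1
      interval_cases n <;> simp_all (config := { decide := true })
    · have : n ≤ 12 := Nat.le_of_dvd (by norm_num) h1
      interval_cases n <;> simp_all (config := { decide := true })
    · have : n ≤ 6 := Nat.le_of_dvd (by norm_num) h1
      interval_cases n <;> simp_all (config := { decide := true })
    · have : n ≤ 4 := Nat.le_of_dvd (by norm_num) h1
      interval_cases n <;> simp_all (config := { decide := true })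
    · have : n ≤ 2 := Nat.le_of_dvd (by norm_num) h1
      interval_cases n <;> simp_all (config := { decide := true })
  obtain ⟨Q⟩ : Nonempty (Sylow 7 (cp V)) := inferInstance
  have hQle := le_normalizer_of_unique (N := Nn P) (K := cp V)
    (fun g hg v hv => conj_mem_cp hV hq hg hv) hone Q
  set Q₀ : Subgroup G := (Q : Subgroup (cp V)).map (cp V).subtype with hQ₀
  have hQ₀card : Nat.card Q₀ = 7 := by
    rw [hQ₀, Subgroup.card_map_of_injective (cp V).subtype_injective, card_sylow_eq hK hk7 Q, pow_one]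
  have hf7 : (459648 : ℕ) = 7 ^ 1 * 65664 := by norm_num
  have hmem := card_sylow_mem_candidates (G := G) hG hN hf7 (by norm_num) (by norm_num)
  have hQp : IsPGroup 7 Q₀ := IsPGroup.of_card (n := 1) (by rw [hQ₀card, pow_one])
  obtain ⟨R, hR⟩ := hQp.exists_le_sylow
  have hRcard := card_sylow_eq (hN.trans hf7) (by norm_num) R
  have hQR : Q₀ = R := Subgroup.eq_of_le_of_card_ge hR (by rw [hQ₀card, hRcard, pow_one])
  have hdiv : Nat.card (Sylow 7 G) ∣ 96 := by
    have h1 : Nat.card (Sylow 7 G) = (Subgroup.normalizer ((R : Subgroup G) : Set G)).index :=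
      R.card_eq_index_normalizer
    rw [h1, ← hidx]
    apply Subgroup.index_dvd_of_le
    rw [← hQR]
    exact hQle
  have hchk : ∀ n ∈ candidates 459648 7 1 65664, ¬ n ∣ 96 := by decide +kernel
  exact hchk _ hmem hdiv

/-- The case of 1008 Sylow subgroups and `|V| = 4`. -/
theorem false_n1008 [IsSimpleGroup G] (hG : ¬ IsMulCommutative G) (hN : Nat.card G = 459648)
    {P : Subgroup G} [hp19 : Fact (Nat.Prime 19)] (hP : Nat.card P = 19) {V : Subgroup (Cn P)}
    [hVn : V.Normal] (hq : Nat.card (Cn P ⧸ V) = 19)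
    (hNn : Nat.card (Nn P) = 456) (hNe : Nat.card (Nn P) = 6 * Nat.card (Cn P))
    (hVc : Nat.card V = 4) : False := by
  classical
  letI : Fintype G := Fintype.ofFinite G
  haveI : Fact (Nat.Prime 2) := ⟨by norm_num⟩
  have hNf : Nat.card (Nn P) = 2 ^ 3 * 57 := by rw [hNn]; norm_num
  obtain ⟨T₀⟩ : Nonempty (Sylow 2 (Nn P)) := inferInstance
  have hT₀ := card_sylow_eq hNf (by norm_num) T₀
  set T : Subgroup G := (T₀ : Subgroup (Nn P)).map (Nn P).subtype with hT
  have hTcard : Nat.card T = 8 := by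
    rw [hT, Subgroup.card_map_of_injective (Nn P).subtype_injective, hT₀]
    norm_num
  have hTN : T ≤ Nn P := by
    rintro _ ⟨v, _, rfl⟩
    exact v.2
  have hTp : IsPGroup 2 T := IsPGroup.of_card (n := 3) (by rw [hTcard]; norm_num)
  have hV : ¬ 19 ∣ Nat.card V := by rw [hVc]; norm_num
  obtain ⟨x, hxK, hx1, hx2, hxT⟩ := exists_invol (K := cp V) (T := T) (by rw [card_cp, hVc]) hTp
    (fun g hg v hv => conj_mem_cp hV hq (hTN hg) hv)
  have hxC : x ∈ Cn P := cp_le V hxK
  set H : Subgroup G := Subgroup.centralizer ({x} : Set G) with hH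
  have hmemH : ∀ g : G, g ∈ H ↔ g * x = x * g := by
    intro g
    rw [hH, Subgroup.mem_centralizer_iff]
    constructor
    · intro h
      exact (h x rfl).symm
    · rintro h _ rfl
      exact h.symm
  have hPH : P ≤ H := by
    intro g hg
    rw [hmemH]
    exact ((Subgroup.mem_centralizer_iff).mp hxC g hg)
  have hTH : T ≤ H := fun g hg => (hmemH g).mpr (hxT g hg)
  have hHne : H ≠ ⊤ := by
    intro htop
    have hcen : x ∈ Subgroup.center G := by
      rw [Subgroup.mem_center_iff]
      intro g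
      have : g ∈ H := by rw [htop]; trivial
      exact (hmemH g).mp this
    have h1 : Subgroup.center G = ⊤ ∨ Subgroup.center G = ⊥ :=
      (Subgroup.Normal.eq_bot_or_eq_top (inferInstance : (Subgroup.center G).Normal)).symm
    rcases h1 with h1 | h1
    · apply hG
      refine ⟨⟨fun a b => ?_⟩⟩
      have : b ∈ Subgroup.center G := by rw [h1]; trivial
      exact Subgroup.mem_center_iff.mp this a
    · rw [h1, Subgroup.mem_bot] at hcen
      exact hx1 hcen
  have hB := card_H_le hG hN hP hTcard hPH hTH hTN hNn hHne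
  have hk : killT 459648 19 6 456 = true := by decide +kernel
  exact false_of_invol hG hN (by norm_num) (by norm_num) hP (by norm_num) hNe (by norm_num)
    hxC hx1 hx2 hB hk

theorem e_cases {e : ℕ} (h : e ∣ 18) (h1 : e ≠ 1) : e = 2 ∨ e = 3 ∨ e = 6 ∨ e = 9 ∨ e = 18 := by
  have hele : e ≤ 18 := Nat.le_of_dvd (by norm_num) h
  interval_cases e <;> omega

/-- No simple group has order 459648. -/
theorem false_main [IsSimpleGroup G] (hN : Nat.card G = 459648) : False := by
  classical
  letI : Fintype G := Fintype.ofFinite G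
  have hG : ¬ IsMulCommutative G := not_comm_of_not_prime (by rw [hN]; norm_num)
  haveI : Fact (Nat.Prime 19) := ⟨by norm_num⟩
  haveI := Cfsg.Agent.Lib.Char.Ortho.finite_irrCharacter (G := G)
  letI := Fintype.ofFinite (IrrCharacter G)
  obtain ⟨P₀⟩ : Nonempty (Sylow 19 G) := inferInstance
  have hf : (459648 : ℕ) = 19 ^ 1 * 24192 := by norm_num
  have hN' : Nat.card G = 19 ^ 1 * 24192 := hN.trans hf
  have hP : Nat.card (P₀ : Subgroup G) = 19 := by
    rw [card_sylow_eq hN' (by norm_num) P₀, pow_one]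
  have hp2 : ¬ 19 ^ 2 ∣ Nat.card G := by rw [hN]; norm_num
  have hmem := card_sylow_mem_candidates (G := G) hG hN hf (by norm_num) (by norm_num)
  have hc : candidates 459648 19 1 24192 = [96, 1008] := by decide +kernel
  rw [hc] at hmem
  have hmem' : Nat.card (Sylow 19 G) = 96 ∨ Nat.card (Sylow 19 G) = 1008 := by simpa using hmem
  have hnorm := card_normalizer_mul P₀
  have hidx : (Nn (P₀ : Subgroup G)).index = Nat.card (Sylow 19 G) :=
    P₀.card_eq_index_normalizer.symm
  obtain ⟨e, hNe, hed⟩ := exists_index hP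
  have hle := le_centralizer hP
  have he1 : e ≠ 1 := by
    rintro rfl
    apply normalizer_not_le_centralizer hG 19 (by rw [hN]; norm_num) P₀
    have h1 : Nat.card (Cn (P₀ : Subgroup G)) = Nat.card (Nn (P₀ : Subgroup G)) := by
      rw [hNe, one_mul]
    have hle' : Cn (P₀ : Subgroup G) ≤ Nn (P₀ : Subgroup G) := Subgroup.centralizer_le_normalizer _
    exact (Subgroup.eq_of_le_of_card_ge hle' h1.ge).symm.le
  obtain ⟨V, hVn, hV, hq, hcomp⟩ := exists_complement hP hp2
  have hCV : Nat.card (Cn (P₀ : Subgroup G)) = 19 * Nat.card V := by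
    have h1 := hcomp.card_mul_card
    rw [Nat.card_congr (Subgroup.subgroupOfEquivOfLe hle).toEquiv, hP] at h1
    exact h1.symm
  have hep := e_cases hed he1
  rcases hmem' with h96 | h1008
  · rw [h96, hN] at hnorm
    have h4 : e * Nat.card V = 252 := by
      rw [hNe, hCV] at hnorm
      nlinarith
    refine false_n96 hG hN hV hq (by rw [hidx, h96]) ?_
    rcases hep with rfl | rfl | rfl | rfl | rfl
    · exact ⟨18, by omega, by norm_num⟩
    · exact ⟨12, by omega, by norm_num⟩
    · exact ⟨6, by omega, by norm_num⟩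
    · exact ⟨4, by omega, by norm_num⟩
    · exact ⟨2, by omega, by norm_num⟩
  · rw [h1008, hN] at hnorm
    have hnorm' : Nat.card (Nn (P₀ : Subgroup G)) * 1008 = 459648 := hnorm
    have hNn : Nat.card (Nn (P₀ : Subgroup G)) = 456 := by omega
    have h4 : e * Nat.card V = 24 := by
      rw [hNe, hCV] at hNn
      nlinarith
    rcases hep with rfl | rfl | rfl | rfl | rfl
    · exact false_of_data hG hN (by norm_num) (by norm_num)
        (exc_general hP hp2 2 hNe (by norm_num)) (by decide +kernel)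
    · exact false_of_data hG hN (by norm_num) (by norm_num)
        (exc_general hP hp2 3 hNe (by norm_num)) (by decide +kernel)
    · exact false_n1008 hG hN hP hq hNn hNe (by omega)
    · omega
    · omega

end Cfsg.Agent.Lib.ExcP.Ord459648
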